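import Cfsg.Prelude.Def_OddOrder
import Cfsg.Prelude.Def_OddOrderLocal
import Cfsg.Agent.Lib.BGTypes.CNSolvable
import Cfsg.Agent.Lib.BGTypes.CNMaximal
import Cfsg.Agent.Lib.Frobenius.CN.Local
import Mathlib.GroupTheory.Focal

/-!
Minimal simple CN groups of odd order: maximal nilpotent subgroups are isolated Hall TI subgroups,
their normalizers are the maximal subgroups.
-/

set_option autoImplicit false

namespace CfsgLib.BGTypes

open Cfsg
open scoped commutatorElement IsMulCommutative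

variable {G : Type*} [Group G] [Finite G]

/-- A subgroup contained in its commutator with a nilpotent subgroup containing it is trivial. -/
theorem eq_bot_of_le_commutator_nilpotent {H X : Subgroup G} (hH : Group.IsNilpotent H) (hXH : X ≤ H)
    (hX : X ≤ ⁅X, H⁆) : X = ⊥ := by
  obtain ⟨n, hn⟩ := Subgroup.nilpotent_iff_lowerCentralSeries.mp hH
  have h0 : X.subgroupOf H ≤ ⁅X.subgroupOf H, (⊤ : Subgroup H)⁆ := by
    rw [← Subgroup.map_le_map_iff_of_injective H.subtype_injective, Subgroup.map_commutator,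
      Subgroup.map_subgroupOf_eq_of_le hXH, ← MonoidHom.range_eq_map, Subgroup.range_subtype]
    exact hX
  have h1 : ∀ m, X.subgroupOf H ≤ (⊤ : Subgroup H).lowerCentralSeries m := by
    intro m
    induction m with
    | zero => rw [Subgroup.lowerCentralSeries_zero]; exact le_top
    | succ m ih =>
      rw [Subgroup.lowerCentralSeries_succ]
      exact h0.trans (Subgroup.commutator_mono ih le_rfl)
  have h2 := h1 n
  rw [hn, le_bot_iff] at h2
  rw [← Subgroup.map_subgroupOf_eq_of_le hXH, h2, Subgroup.map_bot]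

/-- A subgroup containing the centralizers of its non-identity elements. -/
structure IsClosedNilpotent (M : Subgroup G) : Prop where
  ne_bot : M ≠ ⊥
  nilpotent : Group.IsNilpotent M
  centralizer_le : ∀ a ∈ M, a ≠ 1 → Subgroup.centralizer ({a} : Set G) ≤ M

theorem IsClosedNilpotent.map {M : Subgroup G} (h : IsClosedNilpotent M) (g : G) :
    IsClosedNilpotent (M.map (MulAut.conj g).toMonoidHom) := by
  refine ⟨fun hb => h.ne_bot ((Subgroup.map_eq_bot_iff_of_injective _ (MulAut.conj g).injective).mp hb),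
    ?_, ?_⟩
  · have := h.nilpotent
    exact CfsgLib.Cores.isNilpotent_map M _
  · rintro _ ⟨a, ha, rfl⟩ h1 c hc
    refine ⟨g⁻¹ * c * g, h.centralizer_le a ha (fun e => h1 (by rw [e, map_one])) ?_, by simp [mul_assoc]⟩
    refine Subgroup.mem_centralizer_singleton_iff.mpr ?_
    have h2 : c * (g * a * g⁻¹) = g * a * g⁻¹ * c := Subgroup.mem_centralizer_singleton_iff.mp hc
    calc g⁻¹ * c * g * a = g⁻¹ * (c * (g * a * g⁻¹)) * g := by group
      _ = g⁻¹ * (g * a * g⁻¹ * c) * g := by rw [h2]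
      _ = a * (g⁻¹ * c * g) := by group

theorem IsClosedNilpotent.maximal {M : Subgroup G} (h : IsClosedNilpotent M) :
    ∀ L : Subgroup G, Group.IsNilpotent L → M ≤ L → L = M := by
  intro L hL hle
  refine le_antisymm ?_ hle
  have : Nontrivial L := by
    obtain ⟨a, ha, ha1⟩ := (Subgroup.bot_or_exists_ne_one M).resolve_left h.ne_bot
    exact nontrivial_of_ne ⟨a, hle ha⟩ 1 fun e => ha1 (congrArg Subtype.val e)
  obtain ⟨t, ht, htL⟩ := Nat.exists_prime_and_dvd (n := Nat.card L) Finite.one_lt_card.ne'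
  obtain ⟨z, hz, hzt, hzc⟩ := exists_central_orderOf hL ht htL
  obtain ⟨a, ha, ha1⟩ := (Subgroup.bot_or_exists_ne_one M).resolve_left h.ne_bot
  have hzM : z ∈ M := h.centralizer_le a ha ha1
    (Subgroup.mem_centralizer_singleton_iff.mpr (hzc a (hle ha)).symm)
  exact fun c hc => h.centralizer_le z hzM (ne_one_of_orderOf_prime ht hzt)
    (Subgroup.mem_centralizer_singleton_iff.mpr (hzc c hc))

theorem IsClosedNilpotent.eq_of_common {M N : Subgroup G} (hM : IsClosedNilpotent M)
    (hN : IsClosedNilpotent N) {a : G} (haM : a ∈ M) (haN : a ∈ N) (ha : a ≠ 1) : M = N := by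
  have key : ∀ {M N : Subgroup G}, IsClosedNilpotent M → IsClosedNilpotent N →
      a ∈ M → a ∈ N → M ≤ N := by
    intro M N hM hN haM haN
    have : Nontrivial M := nontrivial_of_ne ⟨a, haM⟩ 1 fun e => ha (congrArg Subtype.val e)
    obtain ⟨t, ht, htM⟩ := Nat.exists_prime_and_dvd (n := Nat.card M) Finite.one_lt_card.ne'
    obtain ⟨z, hz, hzt, hzc⟩ := exists_central_orderOf hM.nilpotent ht htM
    have hzN : z ∈ N := hN.centralizer_le a haN ha
      (Subgroup.mem_centralizer_singleton_iff.mpr (hzc a haM).symm)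
    exact fun c hc => hN.centralizer_le z hzN (ne_one_of_orderOf_prime ht hzt)
      (Subgroup.mem_centralizer_singleton_iff.mpr (hzc c hc))
  exact le_antisymm (key hM hN haM haN) (key hN hM haN haM)

theorem IsClosedNilpotent.ti {M : Subgroup G} (h : IsClosedNilpotent M) (g : G)
    (hg : M.map (MulAut.conj g).toMonoidHom ≠ M) : M ⊓ M.map (MulAut.conj g).toMonoidHom = ⊥ := by
  rw [Subgroup.eq_bot_iff_forall]
  rintro a ⟨ha, ha'⟩
  by_contra h1
  exact hg (h.eq_of_common (h.map g) ha ha' h1).symm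

theorem IsClosedNilpotent.mem_normalizer {M : Subgroup G} (h : IsClosedNilpotent M) {g a : G}
    (ha : a ∈ M) (h1 : a ≠ 1) (hga : g * a * g⁻¹ ∈ M) : g ∈ Subgroup.normalizer (M : Set G) := by
  refine Subgroup.mem_normalizer_iff_map_conj_eq.mpr ?_
  refine ((h.map g).eq_of_common h ⟨a, ha, rfl⟩ hga fun e => h1 ?_)
  exact conj_eq_one_iff.mp e

/-- An element of prime power order normalizing a Hall subgroup whose order that prime divides lies in
it. -/
theorem mem_of_mem_normalizer_of_dvd {M : Subgroup G} (hcop : (Nat.card M).Coprime M.index) {g : G}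
    (hg : g ∈ Subgroup.normalizer (M : Set G)) {s i : ℕ} (hgi : orderOf g = s ^ i)
    (hs : s ∣ Nat.card M) : g ∈ M := by
  let N := Subgroup.normalizer (M : Set G)
  let f := QuotientGroup.mk' (M.subgroupOf N)
  have h1 : orderOf (f ⟨g, hg⟩) ∣ s ^ i := hgi ▸ by
    rw [← Subgroup.orderOf_mk g hg]; exact orderOf_map_dvd f _
  have h2 : orderOf (f ⟨g, hg⟩) ∣ M.index :=
    (orderOf_dvd_natCard _).trans (Subgroup.relIndex_dvd_index_of_le Subgroup.le_normalizer)
  have h3 : (s ^ i).Coprime M.index := (hcop.coprime_dvd_left hs).pow_left i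
  have h4 : f ⟨g, hg⟩ = 1 := orderOf_eq_one_iff.mp (Nat.eq_one_of_dvd_coprimes h3 h1 h2)
  exact (QuotientGroup.eq_one_iff (N := M.subgroupOf N) ⟨g, hg⟩).mp h4

/-- Two closed nilpotent subgroups with the same normalizer coincide. -/
theorem IsClosedNilpotent.eq_of_normalizer_eq {M K : Subgroup G} (hM : IsClosedNilpotent M)
    (hK : IsClosedNilpotent K)
    (h : Subgroup.normalizer (M : Set G) = Subgroup.normalizer (K : Set G)) : M = K := by
  obtain ⟨a, ha, ha1⟩ := (Subgroup.bot_or_exists_ne_one M).resolve_left hM.ne_bot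
  obtain ⟨k, hk, hk1⟩ := (Subgroup.bot_or_exists_ne_one K).resolve_left hK.ne_bot
  by_contra hne
  have hd : ∀ x ∈ M, x ∈ K → x = 1 := fun x hx hx' => by
    by_contra h1
    exact hne (hM.eq_of_common hK hx hx' h1)
  have hkM : k ∈ Subgroup.normalizer (M : Set G) := h.ge (Subgroup.le_normalizer hk)
  have haK : a ∈ Subgroup.normalizer (K : Set G) := h.le (Subgroup.le_normalizer ha)
  have h1 : a * k * a⁻¹ * k⁻¹ ∈ K :=
    K.mul_mem ((Subgroup.mem_normalizer_iff.mp haK k).mp hk) (K.inv_mem hk)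
  have h2 : a * (k * a⁻¹ * k⁻¹) ∈ M :=
    M.mul_mem ha ((Subgroup.mem_normalizer_iff.mp hkM _).mp (M.inv_mem ha))
  have h3 : a * k * a⁻¹ * k⁻¹ = 1 := hd _ (by simpa [mul_assoc] using h2) h1
  have h4 : a * k = k * a := mul_inv_eq_iff_eq_mul.mp (mul_inv_eq_one.mp h3)
  exact ha1 (hd a ha (hK.centralizer_le k hk hk1 (Subgroup.mem_centralizer_singleton_iff.mpr h4)))

section MinSimple

variable (hG : IsMinSimpleOddOrder G) (hCN : IsCNGroup G)
include hG hCN

theorem exists_closed_of_ne_one {x : G} (hx : x ≠ 1) : ∃ M, IsClosedNilpotent M ∧ x ∈ M := by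
  obtain ⟨hodd, hsimple, hnc, hsol⟩ := hG
  have := hsimple
  obtain ⟨M, hM, hxM, hcl⟩ := CfsgLib.Frobenius.CN.exists_nilpotent_closed hodd hCN (by
    by_contra h
    push Not at h
    exact hnc ⟨⟨h⟩⟩) hsol hx
  exact ⟨M, ⟨fun h => hx ((Subgroup.eq_bot_iff_forall M).mp h x hxM), hM, hcl⟩, hxM⟩

theorem isClosedNilpotent_of_max {H : Subgroup G} (hH : Group.IsNilpotent H)
    (hmax : ∀ L : Subgroup G, Group.IsNilpotent L → H ≤ L → L = H) : IsClosedNilpotent H := by
  have hsimple := hG.2.1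
  have hH1 : H ≠ ⊥ := by
    intro h
    obtain ⟨x, hx⟩ := exists_ne (1 : G)
    have : Group.IsNilpotent (Subgroup.zpowers x) := inferInstance
    exact hx (Subgroup.zpowers_eq_bot.mp ((hmax _ this (h ▸ bot_le)).trans h))
  have : Nontrivial H := H.nontrivial_iff_ne_bot.mpr hH1
  obtain ⟨t, ht, htH⟩ := Nat.exists_prime_and_dvd (n := Nat.card H) Finite.one_lt_card.ne'
  obtain ⟨z, hz, hzt, hzc⟩ := exists_central_orderOf hH ht htH
  have hz1 := ne_one_of_orderOf_prime ht hzt
  obtain ⟨M, hM, hzM⟩ := exists_closed_of_ne_one hG hCN hz1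
  have hle : H ≤ M := fun c hc =>
    hM.centralizer_le z hzM hz1 (Subgroup.mem_centralizer_singleton_iff.mpr (hzc c hc))
  exact hmax M hM.nilpotent hle ▸ hM

omit hCN in
theorem normalizer_ne_top {M : Subgroup G} (h : IsClosedNilpotent M) :
    Subgroup.normalizer (M : Set G) ≠ ⊤ := by
  obtain ⟨-, hsimple, hnc, -⟩ := hG
  intro ht
  rcases Subgroup.Normal.eq_bot_or_eq_top (Subgroup.normalizer_eq_top_iff.mp ht) with e | e
  · exact h.ne_bot e
  · subst e
    obtain ⟨x, hx⟩ := exists_ne (1 : G)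
    have hzc : Subgroup.center G = ⊤ := by
      have h2 := h.nilpotent
      have : Group.IsNilpotent G := Group.nilpotent_of_mulEquiv Subgroup.topEquiv
      have hne : Subgroup.center G ≠ ⊥ := by
        have h3 := CfsgLib.PSolvable.inf_center_ne_bot (G := G) (N := ⊤) top_ne_bot
        rwa [top_inf_eq] at h3
      exact (Subgroup.Normal.eq_bot_or_eq_top (inferInstance : (Subgroup.center G).Normal)).resolve_left hne
    exact hnc ⟨⟨fun a b => (Subgroup.mem_center_iff.mp (hzc ▸ Subgroup.mem_top b) a)⟩⟩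

/-- A maximal nilpotent subgroup is properly contained in its normalizer. -/
theorem lt_normalizer {M : Subgroup G} (h : IsClosedNilpotent M) :
    M < Subgroup.normalizer (M : Set G) := by
  refine lt_of_le_of_ne Subgroup.le_normalizer fun heq => ?_
  obtain ⟨-, hsimple, hnc, hsol⟩ := hG
  have hcop := coprime_card_index_of_max hCN h.nilpotent h.maximal
  have : Nontrivial M := M.nontrivial_iff_ne_bot.mpr h.ne_bot
  obtain ⟨p, hp, hpM⟩ := Nat.exists_prime_and_dvd (n := Nat.card M) Finite.one_lt_card.ne'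
  have : Fact p.Prime := ⟨hp⟩
  let P₀ : Sylow p M := default
  have hidx : ¬ p ∣ ((P₀ : Subgroup M).map M.subtype).index := by
    rw [Subgroup.index_map_of_injective _ M.subtype_injective, Subgroup.range_subtype]
    intro hd
    rcases hp.dvd_mul.mp hd with hd | hd
    · exact P₀.not_dvd_index hd
    · exact hp.not_dvd_one (hcop ▸ Nat.dvd_gcd hpM hd)
  let P : Sylow p G := (P₀.2.map M.subtype).toSylow hidx
  have hPM : (P : Subgroup G) ≤ M := by
    rw [IsPGroup.toSylow_coe]; exact Subgroup.map_subtype_le _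
  have hP1 : (P : Subgroup G) ≠ ⊥ :=
    P.ne_bot_of_dvd_card (hpM.trans (Subgroup.card_subgroup_dvd_card M))
  refine hP1 (eq_bot_of_le_commutator_nilpotent h.nilpotent hPM ?_)
  have hperf : commutator G = ⊤ := by
    refine (Subgroup.Normal.eq_bot_or_eq_top (inferInstance : (commutator G).Normal)).resolve_left
      fun e => hnc ⟨⟨fun a b => commutatorElement_eq_one_iff_mul_comm.mp ?_⟩⟩
    have h1 := Subgroup.commutator_mem_commutator (Subgroup.mem_top a) (Subgroup.mem_top b)
    rwa [← commutator_def, e, Subgroup.mem_bot] at h1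
  calc (P : Subgroup G) = (P : Subgroup G).focalSubgroup := by
        rw [← Subgroup.commutator_inf_eq_focalSubgroup, hperf, top_inf_eq]
    _ ≤ ⁅(P : Subgroup G), M⁆ := by
      rw [Subgroup.focalSubgroup_def, Subgroup.closure_le]
      rintro _ ⟨hgP, x, hx, w, rfl⟩
      by_cases hx1 : x = 1
      · subst hx1; simp
      refine Subgroup.commutator_mem_commutator hx ?_
      rw [heq]
      refine h.mem_normalizer (a := x⁻¹) (M.inv_mem (hPM hx)) (inv_ne_one.mpr hx1) ?_
      have h1 := M.mul_mem (M.inv_mem (hPM hx)) (hPM hgP)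
      simpa [commutatorElement_def, mul_assoc] using h1

/-- A complement of a maximal nilpotent subgroup in its normalizer. -/
theorem exists_complement_normalizer {M : Subgroup G} (h : IsClosedNilpotent M) :
    ∃ E : Subgroup G, IsComplIn M E (Subgroup.normalizer (M : Set G)) ∧ E ≠ ⊥ ∧
      (Nat.card M).Coprime (Nat.card E) ∧
      ∀ e ∈ E, e ≠ 1 → M ⊓ Subgroup.centralizer ({e} : Set G) = ⊥ := by
  let N := Subgroup.normalizer (M : Set G)
  have hcop := coprime_card_index_of_max hCN h.nilpotent h.maximal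
  have hcM : Nat.card (M.subgroupOf N) = Nat.card M :=
    Nat.card_congr (Subgroup.subgroupOfEquivOfLe Subgroup.le_normalizer).toEquiv
  have hcop' : (Nat.card (M.subgroupOf N)).Coprime (M.subgroupOf N).index := by
    rw [hcM]
    exact hcop.coprime_dvd_right (Subgroup.relIndex_dvd_index_of_le Subgroup.le_normalizer)
  obtain ⟨E₀, hE₀⟩ := Subgroup.exists_right_complement'_of_coprime (N := M.subgroupOf N) hcop'
  have hinf : M ⊓ E₀.map N.subtype = ⊥ := by
    rw [Subgroup.eq_bot_iff_forall]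
    rintro _ ⟨hm, e, he, rfl⟩
    exact congrArg Subtype.val (Subgroup.disjoint_def.mp hE₀.disjoint
      (show e ∈ M.subgroupOf N from hm) he)
  refine ⟨E₀.map N.subtype, ⟨Subgroup.le_normalizer, Subgroup.map_subtype_le _, hinf, fun m hm => ?_⟩,
    fun hb => ?_, ?_, fun e he he1 => ?_⟩
  · obtain ⟨⟨⟨a, ha⟩, ⟨b, hb⟩⟩, hab, -⟩ := hE₀.existsUnique (⟨m, hm⟩ : N)
    exact ⟨a, ha, b, ⟨b, hb, rfl⟩, (congrArg Subtype.val hab).symm⟩
  · rw [Subgroup.map_eq_bot_iff_of_injective _ N.subtype_injective] at hb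
    refine (lt_normalizer hG hCN h).ne ?_
    have h1 := hE₀.sup_eq_top
    rw [hb, sup_bot_eq, Subgroup.subgroupOf_eq_top] at h1
    exact le_antisymm Subgroup.le_normalizer h1
  · rw [Subgroup.card_map_of_injective N.subtype_injective, ← hE₀.symm.index_eq_card, ← hcM]
    exact hcop'
  · rw [Subgroup.eq_bot_iff_forall]
    rintro m ⟨hm, hme⟩
    by_contra hm1
    exact he1 ((Subgroup.eq_bot_iff_forall _).mp hinf e ⟨h.centralizer_le m hm hm1
      (Subgroup.mem_centralizer_singleton_iff.mpr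
        (Subgroup.mem_centralizer_singleton_iff.mp hme).symm), he⟩)

/-- Every maximal subgroup normalizes a maximal nilpotent subgroup. -/
theorem exists_closed_of_coatom {L : Subgroup G} (hL : IsCoatom L) :
    ∃ M : Subgroup G, IsClosedNilpotent M ∧ L = Subgroup.normalizer (M : Set G) := by
  have hsol : Group.IsSolvable L := hG.2.2.2 L hL.1
  have hne : L ≠ ⊥ := by
    intro hb
    have hsimple := hG.2.1
    obtain ⟨x, hx⟩ := exists_ne (1 : G)
    obtain ⟨M, hM, hxM⟩ := exists_closed_of_ne_one hG hCN hx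
    have hMt : M = ⊤ := hL.2 M (hb ▸ bot_lt_iff_ne_bot.mpr hM.ne_bot)
    refine normalizer_ne_top hG hM ?_
    exact top_le_iff.mp (hMt.ge.trans Subgroup.le_normalizer)
  have : Nontrivial L := L.nontrivial_iff_ne_bot.mpr hne
  obtain ⟨x, hx, hx1⟩ := (Subgroup.bot_or_exists_ne_one (fittingSubgroup L)).resolve_left
    CfsgLib.Cores.fittingSubgroup_ne_bot
  obtain ⟨M, hM, hxM⟩ := exists_closed_of_ne_one hG hCN (x := (x : G)) fun e => hx1 (Subtype.ext e)
  refine ⟨M, hM, ?_⟩
  have hxG : (x : G) ≠ 1 := fun e => hx1 (Subtype.ext e)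
  let F := (fittingSubgroup L).map L.subtype
  have hFn : Group.IsNilpotent F := by
    have := CfsgLib.Cores.isNilpotent_fittingSubgroup (G := L)
    exact CfsgLib.Cores.isNilpotent_map _ _
  have hFM : F ≤ M := by
    have : Nontrivial F := nontrivial_of_ne ⟨(x : G), ⟨x, hx, rfl⟩⟩ 1
      fun e => hxG (congrArg Subtype.val e)
    obtain ⟨t, ht, htF⟩ := Nat.exists_prime_and_dvd (n := Nat.card F) Finite.one_lt_card.ne'
    obtain ⟨z, hz, hzt, hzc⟩ := exists_central_orderOf hFn ht htF
    have hzM : z ∈ M := hM.centralizer_le x hxM (fun e => hx1 (Subtype.ext e))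
      (Subgroup.mem_centralizer_singleton_iff.mpr (hzc _ ⟨x, hx, rfl⟩).symm)
    exact fun c hc => hM.centralizer_le z hzM (ne_one_of_orderOf_prime ht hzt)
      (Subgroup.mem_centralizer_singleton_iff.mpr (hzc c hc))
  have hle : L ≤ Subgroup.normalizer (M : Set G) := fun g hg => by
    refine hM.mem_normalizer hxM (fun e => hx1 (Subtype.ext e)) (hFM ?_)
    exact ⟨⟨g, hg⟩ * x * ⟨g, hg⟩⁻¹, (inferInstance : (fittingSubgroup L).Normal).conj_mem x hx ⟨g, hg⟩, rfl⟩
  refine le_antisymm hle ?_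
  by_contra hlt
  exact normalizer_ne_top hG hM (hL.2 _ (lt_of_le_not_ge hle hlt))

/-- The normalizer of a maximal nilpotent subgroup is a maximal subgroup. -/
theorem isCoatom_normalizer {H : Subgroup G} (hH : IsClosedNilpotent H) :
    IsCoatom (Subgroup.normalizer (H : Set G)) := by
  obtain ⟨L, hL, hle⟩ := (eq_top_or_exists_le_coatom (Subgroup.normalizer (H : Set G))).resolve_left
    (normalizer_ne_top hG hH)
  obtain ⟨M, hM, rfl⟩ := exists_closed_of_coatom hG hCN hL
  suffices hMH : M = H by subst hMH; exact hL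
  by_contra hne
  have hdisj : ∀ a ∈ H, a ∈ M → a = 1 := fun a ha ha' => by
    by_contra h1
    exact hne (hM.eq_of_common hH ha' ha h1)
  obtain ⟨E, hE, hE1, hEcop, hEfpf⟩ := exists_complement_normalizer hG hCN hH
  obtain ⟨E', hE', -, -, hE'fpf⟩ := exists_complement_normalizer hG hCN hM
  -- the quotient `N(M)/M` is nilpotent
  have hE'nil : Group.IsNilpotent E' := isNilpotent_of_cn_fpf hCN hM.ne_bot hE'.2.1 hE'fpf
  let N := Subgroup.normalizer (M : Set G)
  let f := QuotientGroup.mk' (M.subgroupOf N)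
  have hQ : Group.IsNilpotent (N ⧸ M.subgroupOf N) := by
    have := hE'nil
    refine Group.nilpotent_of_surjective (f.comp (Subgroup.inclusion hE'.2.1)) ?_
    intro y
    obtain ⟨⟨n, hn⟩, rfl⟩ := QuotientGroup.mk'_surjective _ y
    obtain ⟨a, ha, b, hb, rfl⟩ := hE'.2.2.2 n hn
    refine ⟨⟨b, hb⟩, ?_⟩
    show f ⟨b, hE'.2.1 hb⟩ = f ⟨a * b, hn⟩
    rw [show (⟨a * b, hn⟩ : N) = ⟨a, Subgroup.le_normalizer ha⟩ * ⟨b, hE'.2.1 hb⟩ from rfl, map_mul,
      show f ⟨a, Subgroup.le_normalizer ha⟩ = 1 from (QuotientGroup.eq_one_iff _).mpr ha, one_mul]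
  obtain ⟨e, he, he1⟩ := (Subgroup.bot_or_exists_ne_one E).resolve_left hE1
  obtain ⟨a, ha, ha1⟩ := (Subgroup.bot_or_exists_ne_one H).resolve_left hH.ne_bot
  have heN : e ∈ N := hle (hE.2.1 he)
  have haN : a ∈ N := hle (Subgroup.le_normalizer ha)
  have hcomm : ⁅(⟨e, heN⟩ : N), ⟨a, haN⟩⁆ ∈ M.subgroupOf N := by
    refine (QuotientGroup.eq_one_iff _).mp ?_
    show f ⁅(⟨e, heN⟩ : N), ⟨a, haN⟩⁆ = 1
    rw [map_commutatorElement, commutatorElement_eq_one_iff_commute]
    have := hQ
    refine CfsgLib.BGAppendix.commute_of_coprime_orderOf _ _ _ ?_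
    refine Nat.Coprime.coprime_dvd_left (orderOf_map_dvd f _) (Nat.Coprime.coprime_dvd_right
      (orderOf_map_dvd f _) ?_)
    rw [Subgroup.orderOf_mk, Subgroup.orderOf_mk]
    exact (hEcop.symm.coprime_dvd_left (Subgroup.orderOf_dvd_natCard E he)).coprime_dvd_right
      (Subgroup.orderOf_dvd_natCard H ha)
  have h1 : e * a * e⁻¹ * a⁻¹ ∈ H :=
    H.mul_mem ((Subgroup.mem_normalizer_iff.mp (hE.2.1 he) a).mp ha) (H.inv_mem ha)
  have h2 : e * a * e⁻¹ * a⁻¹ = 1 := hdisj _ h1 hcomm
  have h3 : a ∈ H ⊓ Subgroup.centralizer ({e} : Set G) := ⟨ha, Subgroup.mem_centralizer_singleton_iff.mpr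
    (mul_inv_eq_iff_eq_mul.mp (mul_inv_eq_one.mp h2)).symm⟩
  rw [hEfpf e he he1, Subgroup.mem_bot] at h3
  exact ha1 h3

/-- A closed nilpotent subgroup whose order a prime `p` divides contains a Sylow `p`-subgroup. -/
theorem exists_sylow_le_closed {M : Subgroup G} (h : IsClosedNilpotent M) {p : ℕ} [Fact p.Prime]
    (hd : p ∣ Nat.card M) : ∃ P : Sylow p G, (P : Subgroup G) ≤ M := by
  have hcop := coprime_card_index_of_max hCN h.nilpotent h.maximal
  let P₀ : Sylow p M := default
  have hidx : ¬ p ∣ ((P₀ : Subgroup M).map M.subtype).index := by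
    rw [Subgroup.index_map_of_injective _ M.subtype_injective, Subgroup.range_subtype]
    intro hd'
    rcases (Fact.out : p.Prime).dvd_mul.mp hd' with h1 | h1
    · exact P₀.not_dvd_index h1
    · exact (Fact.out : p.Prime).not_dvd_one (hcop ▸ Nat.dvd_gcd hd h1)
  exact ⟨(P₀.2.map M.subtype).toSylow hidx, by
    rw [IsPGroup.toSylow_coe]; exact Subgroup.map_subtype_le _⟩

/-- Closed nilpotent subgroups whose orders share a prime are conjugate. -/
theorem exists_conj_of_dvd {M K : Subgroup G} (hM : IsClosedNilpotent M) (hK : IsClosedNilpotent K)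
    {p : ℕ} (hp : p.Prime) (hdM : p ∣ Nat.card M) (hdK : p ∣ Nat.card K) :
    ∃ g : G, K = M.map (MulAut.conj g).toMonoidHom := by
  have : Fact p.Prime := ⟨hp⟩
  obtain ⟨P, hP⟩ := exists_sylow_le_closed hG hCN hM hdM
  obtain ⟨Q, hQ⟩ := exists_sylow_le_closed hG hCN hK hdK
  obtain ⟨g, hg⟩ := MulAction.exists_smul_eq G P Q
  refine ⟨g, ?_⟩
  obtain ⟨a, ha, ha1⟩ := (Subgroup.bot_or_exists_ne_one (Q : Subgroup G)).resolve_left
    (Q.ne_bot_of_dvd_card (hdK.trans (Subgroup.card_subgroup_dvd_card K)))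
  have ha' : a ∈ M.map (MulAut.conj g).toMonoidHom := by
    rw [← hg, Sylow.coe_subgroup_smul, Subgroup.mem_pointwise_smul_iff_inv_smul_mem, ← map_inv,
      MulAut.smul_def, MulAut.conj_apply, inv_inv] at ha
    exact ⟨g⁻¹ * a * g, hP ha, by simp [mul_assoc]⟩
  exact hK.eq_of_common (hM.map g) (hQ ha) ha' ha1

theorem fittingHallOf_normalizer {M : Subgroup G} (h : IsClosedNilpotent M) :
    fittingHallOf (Subgroup.normalizer (M : Set G)) = M := by
  refine h.maximal _ ?_ (CfsgLib.BGAppendix.le_fittingHallOf Subgroup.le_normalizer le_rfl h.nilpotent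
    ((coprime_card_index_of_max hCN h.nilpotent h.maximal).coprime_dvd_right
      (Subgroup.relIndex_dvd_index_of_le Subgroup.le_normalizer)))
  exact CfsgLib.Cores.isNilpotent_of_le (CfsgLib.BGAppendix.isNilpotent_fittingOf _)
    (CfsgLib.BGAppendix.fittingHallOf_le_fittingOf _)

end MinSimple

end CfsgLib.BGTypes
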