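import Cfsg.Agent.Lib.BGTypes.PuigTransport
import Cfsg.Agent.Lib.Replacement.Glauberman
import Cfsg.Agent.Lib.ThompsonJ.Basic
import Cfsg.Agent.Lib.ThompsonJ.SylowTools
import Cfsg.Agent.Lib.PGroups.Aut
import Cfsg.Agent.Lib.PGroups.Omega
import Cfsg.Agent.Lib.NormalPComplement.Thompson
import Cfsg.Agent.Lib.Cores.PCore

/-!
Glauberman's argument for the whole centre of the Thompson subgroup (elementary abelian version):
in a group that is `p`-stable on all normal `p`-subgroups, `Z(J(S)) ∩ B` is normal for every normal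
`p`-subgroup `B`.
-/

set_option autoImplicit false

namespace CfsgLib.BGTypes

open Cfsg
open scoped commutatorElement

variable {G : Type*} [Group G] [Finite G] {p : ℕ} [hp : Fact p.Prime]

/-- Glauberman replacement among the elementary abelian subgroups of largest order. -/
theorem exists_maxEA_replacement (hp2 : p ≠ 2) {S : Subgroup G} (hS : IsPGroup p S)
    {A E : Subgroup G} (hA : CfsgLib.ThompsonJ.IsMaxEA p S A) (hES : E ≤ S)
    (hE2 : ⁅⁅E, E⁆, E⁆ = ⊥) (hEA : ⁅E, E⁆ ≤ A) (hAE : A ≤ Subgroup.normalizer (E : Set G))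
    (hn : ¬ E ≤ Subgroup.normalizer (A : Set G)) :
    ∃ A' : Subgroup G, CfsgLib.ThompsonJ.IsMaxEA p S A' ∧
      A' ≤ Subgroup.normalizer (A : Set G) ∧
      Nat.card (A ⊓ E : Subgroup G) < Nat.card (A' ⊓ E : Subgroup G) := by
  let A₀ := A.subgroupOf S
  let E₀ := E.subgroupOf S
  have hAm : A₀.map S.subtype = A := Subgroup.map_subgroupOf_eq_of_le hA.le
  have hEm : E₀.map S.subtype = E := Subgroup.map_subgroupOf_eq_of_le hES
  have hinj : Function.Injective S.subtype := S.subtype_injective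
  have hA₀ : IsMulCommutative A₀ :=
    have := hA.elem.1; Subgroup.subgroupOf_isMulCommutative S A
  have h2 : ⁅⁅E₀, E₀⁆, E₀⁆ = ⊥ := by
    apply Subgroup.map_injective hinj
    rw [Subgroup.map_commutator, Subgroup.map_commutator, hEm, hE2, Subgroup.map_bot]
  have h3 : ⁅E₀, E₀⁆ ≤ A₀ := by
    rw [← Subgroup.map_le_map_iff_of_injective hinj, Subgroup.map_commutator, hEm, hAm]
    exact hEA
  have h4 : A₀ ≤ Subgroup.normalizer (E₀ : Set S) := fun a ha =>
    Subgroup.mem_normalizer_iff.mpr fun e => Subgroup.mem_normalizer_iff.mp (hAE ha) (e : G)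
  have h5 : ¬ E₀ ≤ Subgroup.normalizer (A₀ : Set S) := fun h => hn <| by
    rw [← hEm, ← hAm]
    exact (Subgroup.map_mono h).trans (Subgroup.le_normalizer_map _)
  obtain ⟨x, h, hx⟩ := CfsgLib.Replacement.exists_glaubermanStep hp2 hS A₀ E₀ hA₀ h2 h3 h4 h5
  have hpo : Odd p := hp.out.odd_of_ne_two hp2
  have hpow : ∀ a ∈ A₀, a ^ p = 1 := fun a ha => Subtype.ext (hA.elem.2 _ ha)
  have hcard : Nat.card (h.star.map S.subtype) = Nat.card A := by
    rw [Subgroup.card_map_of_injective hinj, h.card_star,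
      Nat.card_congr (Subgroup.subgroupOfEquivOfLe hA.le).toEquiv]
  have hc : IsMulCommutative h.star := IsMulCommutative.of_setLike_mul_comm h.star_comm
  refine ⟨h.star.map S.subtype, ⟨Subgroup.map_subtype_le _,
    CfsgLib.ThompsonJ.isElementaryAbelian_map ⟨hc, fun y hy => h.pow_star_eq_one hpo hpow hy⟩ _,
    fun B hB hBe => (hA.card_le B hB hBe).trans hcard.ge⟩, ?_, ?_⟩
  · conv_rhs => rw [← hAm]
    exact (Subgroup.map_mono h.star_le_normalizer).trans (Subgroup.le_normalizer_map _)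
  · rw [← hAm, ← hEm, ← Subgroup.map_inf _ _ _ hinj, ← Subgroup.map_inf _ _ _ hinj,
      Subgroup.card_map_of_injective hinj, Subgroup.card_map_of_injective hinj]
    have hlt := h.inf_lt_star_inf hx
    exact lt_of_le_of_ne (Subgroup.card_le_of_le hlt.le)
      fun he => hlt.ne (Subgroup.eq_of_le_of_card_ge hlt.le he.ge)

/-- In class at most two, for odd `p`, `Ω₁` has exponent `p`. -/
theorem pow_eq_one_of_mem_omegaOne (hp2 : p ≠ 2) {B : Subgroup G} (hB2 : ⁅⁅B, B⁆, B⁆ = ⊥)
    {x : G} (hx : x ∈ omegaOne p B) : x ^ p = 1 := by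
  have hcl : ⁅commutator B, (⊤ : Subgroup B)⁆ = ⊥ := by
    apply Subgroup.map_injective B.subtype_injective
    rw [Subgroup.map_commutator, Subgroup.map_subtype_commutator, ← MonoidHom.range_eq_map,
      Subgroup.range_subtype, hB2, Subgroup.map_bot]
  have h : x ∈ B ∧ x ^ p = 1 := by
    induction hx using Subgroup.closure_induction with
    | mem a ha => exact ha
    | one => exact ⟨one_mem B, one_pow p⟩
    | mul a b _ _ ha hb =>
      refine ⟨mul_mem ha.1 hb.1, ?_⟩
      exact congrArg Subtype.val (CfsgLib.PGroups.mul_pow_eq_one_of_small_class (Or.inl ⟨hp2, hcl⟩)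
        (x := (⟨a, ha.1⟩ : B)) (y := ⟨b, hb.1⟩) (Subtype.ext ha.2) (Subtype.ext hb.2))
    | inv a _ ha => exact ⟨inv_mem ha.1, by rw [inv_pow, ha.2, inv_one]⟩
  exact h.2

omit [Finite G] hp in
theorem inf_normalizer_le {H K : Subgroup G} :
    Subgroup.normalizer (H : Set G) ⊓ Subgroup.normalizer (K : Set G) ≤
      Subgroup.normalizer ((H ⊓ K : Subgroup G) : Set G) :=
  Subgroup.inf_normalizer_le_normalizer_inf

/-- The step of Glauberman's argument for a normal `p`-subgroup `B` generated by the conjugates of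
`Z(J(S)) ∩ B`, with `[B,B] ≤ Z(J(S))` centralized by `B`. -/
theorem centerThompson_inf_normal_step (hp2 : p ≠ 2)
    (hst : ∀ P : Subgroup G, [P.Normal] → IsPGroup p P → ∀ a : G, (∀ x ∈ P, ⁅⁅x, a⁆, a⁆ = 1) →
      QuotientGroup.mk' (Subgroup.centralizer (P : Set G)) a
        ∈ pCore p (G ⧸ Subgroup.centralizer (P : Set G)))
    (S : Sylow p G) (B : Subgroup G) [B.Normal] (hB : IsPGroup p B)
    (hgen : Subgroup.normalClosure ((centerThompsonOf p (S : Subgroup G) ⊓ B : Subgroup G) : Set G) = B)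
    (hBB : ⁅B, B⁆ ≤ centerThompsonOf p (S : Subgroup G)) (hB2 : ⁅⁅B, B⁆, B⁆ = ⊥) :
    (centerThompsonOf p (S : Subgroup G) ⊓ B).Normal := by
  let S₀ := (S : Subgroup G)
  let J := thompsonSubgroupOf p S₀
  let Z := centerThompsonOf p S₀
  let Z₁ := Z ⊓ B
  let E := omegaOne p B
  have hBS : B ≤ S₀ := (CfsgLib.Cores.le_pCore hB).trans (CfsgLib.Cores.pCore_le_sylow S)
  have hZC : Z ≤ Subgroup.centralizer (J : Set G) := inf_le_right
  have hNZ : Subgroup.normalizer (J : Set G) ≤ Subgroup.normalizer (Z : Set G) :=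
    normalizer_le_normalizer_inf_centralizer J
  have hBN : ∀ g : G, g ∈ Subgroup.normalizer (B : Set G) := fun g =>
    Subgroup.le_normalizer_of_normal (Subgroup.mem_top g)
  have hJZ₁ : Subgroup.normalizer (J : Set G) ≤ Subgroup.normalizer (Z₁ : Set G) := fun g hg =>
    inf_normalizer_le ⟨hNZ hg, hBN g⟩
  have hSN : S₀ ≤ Subgroup.normalizer (Z₁ : Set G) :=
    (Subgroup.le_normalizer.trans
      (CfsgLib.ThompsonJ.normalizer_le_normalizer_thompsonSubgroupOf p S₀)).trans hJZ₁
  have hEB : E ≤ B := CfsgLib.ThompsonJ.omegaOne_le p B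
  have hEn : E.Normal := CfsgLib.NormalPComplement.omegaOne_normal B
  have hEexp : ∀ x ∈ E, x ^ p = 1 := fun x hx => pow_eq_one_of_mem_omegaOne hp2 hB2 hx
  have hE2 : ⁅⁅E, E⁆, E⁆ = ⊥ :=
    le_bot_iff.mp ((Subgroup.commutator_mono (Subgroup.commutator_mono hEB hEB) hEB).trans hB2.le)
  have hEA : ∀ A, CfsgLib.ThompsonJ.IsMaxEA p S₀ A → ⁅E, E⁆ ≤ A := fun A hA x hx => by
    have hxE : x ∈ E := (Subgroup.commutator_le_left E E) hx
    exact hA.mem_of_centralizes (hBS (hEB hxE)) (hEexp x hxE)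
      (Subgroup.centralizer_le (CfsgLib.ThompsonJ.le_thompsonSubgroupOf hA)
        (hZC (hBB (Subgroup.commutator_mono hEB hEB hx))))
  let L := (Subgroup.normalizer (Z₁ : Set G)).normalCore
  let T := S₀ ⊓ L
  have hLn : L.Normal := Subgroup.normalCore_normal _
  have key : ∀ A, CfsgLib.ThompsonJ.IsMaxEA p S₀ A → A ≤ L := by
    by_contra hcon
    push Not at hcon
    obtain ⟨A, ⟨hA, hAL⟩, hmax⟩ :=
      Set.exists_max_image {A : Subgroup G | CfsgLib.ThompsonJ.IsMaxEA p S₀ A ∧ ¬ A ≤ L}
        (fun A => Nat.card (A ⊓ E : Subgroup G)) (Set.toFinite _) hcon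
    by_cases hn : E ≤ Subgroup.normalizer (A : Set G)
    · -- `A` acts quadratically on `E`
      apply hAL
      intro a ha
      have hq : ∀ x ∈ E, ⁅⁅x, a⁆, a⁆ = 1 := fun x hx => by
        have h1 : ⁅x, a⁆ ∈ A := by
          rw [commutatorElement_def]
          exact A.mul_mem ((Subgroup.mem_normalizer_iff.mp (hn hx) a).mp ha) (A.inv_mem ha)
        exact commutatorElement_eq_one_iff_mul_comm.mpr
          (CfsgLib.ThompsonJ.isElementaryAbelian_comm hA.elem h1 ha)
      let M := (pCore p (G ⧸ Subgroup.centralizer (E : Set G))).comap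
        (QuotientGroup.mk' (Subgroup.centralizer (E : Set G)))
      have hMn : M.Normal := (Cfsg.pCore_normal p _).comap _
      have hMp : IsPGroup p (M.map (QuotientGroup.mk' (Subgroup.centralizer (B : Set G)))) := by
        rintro ⟨_, m, hm, rfl⟩
        obtain ⟨k, hk⟩ := CfsgLib.Cores.isPGroup_pCore p _ ⟨_, hm⟩
        have hk' : m ^ p ^ k ∈ Subgroup.centralizer (E : Set G) :=
          (QuotientGroup.eq_one_iff _).mp ((map_pow _ _ _).trans (congrArg Subtype.val hk))
        obtain ⟨j, u, hu, hju⟩ :=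
          Nat.exists_eq_pow_mul_and_not_dvd (orderOf_pos (m ^ p ^ k)).ne' p hp.out.ne_one
        let y := (m ^ p ^ k) ^ p ^ j
        have hyu : orderOf y = u := by
          rw [orderOf_pow_of_dvd (pow_ne_zero _ hp.out.ne_zero) (hju ▸ dvd_mul_right _ _), hju,
            Nat.mul_div_cancel_left _ (pow_pos hp.out.pos j)]
        have hyC : y ∈ Subgroup.centralizer (E : Set G) := pow_mem hk' _
        have hy : MulAut.conjNormal (H := B) y = 1 := by
          refine CfsgLib.PGroups.eq_one_of_fixed_omega hp2 hB _ ?_ fun z hz => Subtype.ext ?_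
          · exact Nat.Coprime.coprime_dvd_left (orderOf_map_dvd _ y)
              (by rw [hyu]; exact (hp.out.coprime_iff_not_dvd.mpr hu).symm)
          · rw [MulAut.conjNormal_apply, ← Subgroup.mem_centralizer_iff.mp hyC (z : G)
              (CfsgLib.ThompsonJ.mem_omegaOne z.2 (congrArg Subtype.val hz)), mul_inv_cancel_right]
        refine ⟨k + j, Subtype.ext ?_⟩
        rw [SubmonoidClass.coe_pow, OneMemClass.coe_one, ← map_pow, pow_add, pow_mul]
        refine (QuotientGroup.eq_one_iff _).mpr (Subgroup.mem_centralizer_iff.mpr fun z hz => ?_)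
        have h1 := congrArg Subtype.val (DFunLike.congr_fun hy ⟨z, hz⟩)
        rw [MulAut.conjNormal_apply, MulAut.one_apply] at h1
        exact (mul_inv_eq_iff_eq_mul.mp h1).symm
      have hCN : Subgroup.centralizer (B : Set G) ≤ Subgroup.normalizer (Z₁ : Set G) :=
        (Subgroup.centralizer_le (show Z₁ ≤ B from inf_le_right)).trans
          (Subgroup.centralizer_le_normalizer _)
      have hML : M ≤ L := Subgroup.normal_le_normalCore.mpr fun m hm => by
        have := hMn.map _ (QuotientGroup.mk'_surjective (Subgroup.centralizer (B : Set G)))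
        have h1 := CfsgLib.Cores.pCore_le_sylow
          (S.mapSurjective (QuotientGroup.mk'_surjective (Subgroup.centralizer (B : Set G))))
          (CfsgLib.Cores.le_pCore hMp (Subgroup.mem_map_of_mem _ hm))
        rw [Sylow.coe_mapSurjective] at h1
        obtain ⟨s, hs, hsm⟩ := h1
        have h2 := mul_mem (hSN hs) (hCN (QuotientGroup.eq.mp hsm))
        rwa [mul_inv_cancel_left] at h2
      exact hML (hst E (hB.to_le hEB) a hq)
    · -- replacement
      obtain ⟨A', hA', hA'N, hlt⟩ := exists_maxEA_replacement hp2 S.2 hA (hEB.trans hBS) hE2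
        (hEA A hA) Subgroup.le_normalizer_of_normal hn
      have hA'L : A' ≤ L := by
        by_contra h
        exact absurd (hmax A' ⟨hA', h⟩) (not_le.mpr hlt)
      have hZcore : Z₁ ≤ (Subgroup.centralizer (A' : Set G)).normalCore := by
        intro z hz g
        obtain ⟨l, hl, n, hn', hg⟩ := CfsgLib.ThompsonJ.exists_mul_normalizer_inf_sylow S L g⁻¹
        refine Subgroup.mem_centralizer_iff.mpr fun a ha => ?_
        have hw : l⁻¹ * z * l ∈ Z₁ := (Subgroup.mem_normalizer_iff''.mp
          (Subgroup.normalCore_le _ hl) z).mp hz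
        have hA'' : A'.map (MulAut.conj n).toMonoidHom ≤ S₀ := by
          rintro _ ⟨b, hb, rfl⟩
          exact ((Subgroup.mem_normalizer_iff.mp hn' b).mp ⟨hA'.le hb, hA'L hb⟩).1
        have hmax'' : CfsgLib.ThompsonJ.IsMaxEA p S₀ (A'.map (MulAut.conj n).toMonoidHom) :=
          ⟨hA'', CfsgLib.ThompsonJ.isElementaryAbelian_map hA'.elem _, fun C hC hCe =>
            (hA'.card_le C hC hCe).trans
              (Subgroup.card_map_of_injective (MulAut.conj n).injective).ge⟩
        have hc := Subgroup.mem_centralizer_iff.mp (hZC hw.1) (n * a * n⁻¹)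
          (CfsgLib.ThompsonJ.le_thompsonSubgroupOf hmax'' ⟨a, ha, rfl⟩)
        have hgn : g = n⁻¹ * l⁻¹ := by rw [← mul_inv_rev, ← hg, inv_inv]
        rw [hgn]
        calc a * (n⁻¹ * l⁻¹ * z * (n⁻¹ * l⁻¹)⁻¹)
            = n⁻¹ * ((n * a * n⁻¹) * (l⁻¹ * z * l)) * n := by group
          _ = n⁻¹ * ((l⁻¹ * z * l) * (n * a * n⁻¹)) * n := by rw [hc]
          _ = n⁻¹ * l⁻¹ * z * (n⁻¹ * l⁻¹)⁻¹ * a := by group
      have hBC : B ≤ Subgroup.centralizer (A' : Set G) := by
        rw [← hgen]
        exact (Subgroup.normalClosure_le_normal hZcore).trans (Subgroup.normalCore_le _)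
      exact hn (le_trans (fun e he => hA'.mem_of_centralizes (hBS (hEB he)) (hEexp e he)
        (hBC (hEB he))) hA'N)
  have hJT : thompsonSubgroupOf p T = J :=
    CfsgLib.ThompsonJ.thompsonSubgroupOf_eq_of_le inf_le_left (le_inf
      (CfsgLib.ThompsonJ.thompsonSubgroupOf_le p S₀) (CfsgLib.ThompsonJ.thompsonSubgroupOf_le_iff.mpr key))
  rw [← Subgroup.normalizer_eq_top_iff, eq_top_iff]
  intro g _
  obtain ⟨l, hl, n, hn, rfl⟩ := CfsgLib.ThompsonJ.exists_mul_normalizer_inf_sylow S L g
  refine mul_mem (Subgroup.normalCore_le _ hl) (hJZ₁ ?_)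
  have h := CfsgLib.ThompsonJ.normalizer_le_normalizer_thompsonSubgroupOf p T hn
  rwa [hJT] at h

/-- Glauberman's theorem for the whole centre of `J` (elementary abelian version): in a group
`p`-stable on its normal `p`-subgroups, `Z(J(S)) ∩ B` is normal for all normal `p`-subgroups `B`. -/
theorem centerThompson_inf_normal (hp2 : p ≠ 2)
    (hst : ∀ P : Subgroup G, [P.Normal] → IsPGroup p P → ∀ a : G, (∀ x ∈ P, ⁅⁅x, a⁆, a⁆ = 1) →
      QuotientGroup.mk' (Subgroup.centralizer (P : Set G)) a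
        ∈ pCore p (G ⧸ Subgroup.centralizer (P : Set G)))
    (S : Sylow p G) (B : Subgroup G) [hBn : B.Normal] (hB : IsPGroup p B) :
    (centerThompsonOf p (S : Subgroup G) ⊓ B).Normal := by
  induction hn : Nat.card B using Nat.strong_induction_on generalizing B with
  | _ n ih =>
  let Z := centerThompsonOf p (S : Subgroup G)
  have hlt : ∀ C : Subgroup G, C < B → Nat.card C < n := fun C hC => hn ▸
    lt_of_le_of_ne (Subgroup.card_le_of_le hC.le)
      fun he => hC.ne (Subgroup.eq_of_le_of_card_ge hC.le he.ge)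
  let B₀ := Subgroup.normalClosure ((Z ⊓ B : Subgroup G) : Set G)
  have hB₀ : B₀ ≤ B := Subgroup.normalClosure_le_normal inf_le_right
  rcases eq_or_lt_of_le hB₀ with hgen | hB₀lt
  swap
  · have h := ih _ (hlt B₀ hB₀lt) B₀ (hB.to_le hB₀) rfl
    have he : Z ⊓ B₀ = Z ⊓ B := le_antisymm (inf_le_inf_left Z hB₀)
      (le_inf inf_le_left fun x hx => Subgroup.subset_normalClosure hx)
    rwa [he] at h
  by_cases hbot : B = ⊥
  · rw [hbot, inf_bot_eq]; infer_instance
  have hB' : ⁅B, B⁆ < B := by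
    have : Nontrivial B := B.nontrivial_iff_ne_bot.mpr hbot
    have : Group.IsNilpotent B := hB.isNilpotent
    have h := Subgroup.map_subtype_lt_map_subtype.mpr
      (Group.IsSolvable.commutator_lt_top_of_nontrivial B)
    rwa [Subgroup.map_subtype_commutator, ← MonoidHom.range_eq_map, Subgroup.range_subtype] at h
  have hN : (Z ⊓ ⁅B, B⁆).Normal := ih _ (hlt _ hB') ⁅B, B⁆ (hB.to_le hB'.le) rfl
  have hBS : B ≤ (S : Subgroup G) :=
    (CfsgLib.Cores.le_pCore hB).trans (CfsgLib.Cores.pCore_le_sylow S)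
  have hBZ : B ≤ Subgroup.normalizer (Z : Set G) :=
    hBS.trans ((Subgroup.le_normalizer.trans
      (CfsgLib.ThompsonJ.normalizer_le_normalizer_thompsonSubgroupOf p _)).trans
      (normalizer_le_normalizer_inf_centralizer _))
  let q := QuotientGroup.mk' (Z ⊓ ⁅B, B⁆)
  have hBB : ⁅B, B⁆ ≤ Z ⊓ ⁅B, B⁆ := by
    have : (B.map q).Normal := hBn.map q (QuotientGroup.mk'_surjective _)
    have hK : B ≤ (Subgroup.centralizer (B.map q : Set (G ⧸ (Z ⊓ ⁅B, B⁆)))).comap q := by
      refine hgen.ge.trans (Subgroup.normalClosure_le_normal fun z hz => ?_)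
      refine Subgroup.mem_centralizer_iff.mpr ?_
      rintro _ ⟨b, hb, rfl⟩
      rw [← commutatorElement_eq_one_iff_mul_comm, ← map_commutatorElement]
      refine (QuotientGroup.eq_one_iff _).mpr ⟨?_, Subgroup.commutator_mem_commutator hb hz.2⟩
      rw [commutatorElement_def]
      exact Z.mul_mem ((Subgroup.mem_normalizer_iff.mp (hBZ hb) z).mp hz.1) (Z.inv_mem hz.1)
    refine Subgroup.commutator_le.mpr fun x hx y hy => (QuotientGroup.eq_one_iff _).mp ?_
    show q ⁅x, y⁆ = 1
    rw [map_commutatorElement, commutatorElement_eq_one_iff_mul_comm]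
    exact Subgroup.mem_centralizer_iff.mp (hK hy) _ (Subgroup.mem_map_of_mem q hx)
  have hB2 : ⁅⁅B, B⁆, B⁆ = ⊥ := by
    rw [Subgroup.commutator_comm, Subgroup.commutator_eq_bot_iff_le_centralizer]
    refine hgen.ge.trans (Subgroup.normalClosure_le_normal fun z hz => ?_)
    refine Subgroup.mem_centralizer_iff.mpr fun c hc => ?_
    have h1 : c ∈ Z := (hBB hc).1
    exact Subgroup.mem_centralizer_iff.mp hz.1.2 c h1.1
  exact centerThompson_inf_normal_step hp2 hst S B hB hgen (hBB.trans inf_le_left) hB2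

end CfsgLib.BGTypes
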