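import Cfsg.Agent.Lib.BGTypes.FPFAction
import Cfsg.Agent.Lib.BGTypes.FPFModule

/-!
BG 3.8: `[K, R] ≤ F(K)` for a prime action of `R` on `K` fixed-point-free on `F(K)`, given the
irreducible module case of BG 3.4.
-/

set_option autoImplicit false
set_option linter.style.haveILetI false

namespace CfsgLib.BGTypes

open Cfsg Cfsg.Agent.S1545 CfsgLib.BGUniqueness
open scoped commutatorElement

universe u

variable {G : Type u} [Group G] [Finite G]

theorem commutator_le_fittingOf_of_prime_action {K R : Subgroup G} [K.Normal]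
    (hK : Group.IsSolvable K) (hcop : (Nat.card K).Coprime (Nat.card R))
    (hprime : ∀ x ∈ R, x ≠ 1 →
      K ⊓ Subgroup.centralizer ({x} : Set G) = K ⊓ Subgroup.centralizer (R : Set G))
    (hF : fittingOf K ⊓ Subgroup.centralizer (R : Set G) = ⊥)
    (hkey : ∀ (p q : ℕ) [Fact p.Prime] [Fact q.Prime] (L : Subgroup G) (x : G), x ∈ R →
      (orderOf x).Prime → L ≤ K → IsPGroup q L → p ≠ q → (orderOf x).Coprime p →
      (orderOf x).Coprime q → Subgroup.zpowers x ≤ Subgroup.normalizer (L : Set G) →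
      ⁅L, Subgroup.zpowers x⁆ = L → p ∣ Nat.card K →
      ∀ (V : Type u) [CommGroup V] [Finite V] [Nontrivial V]
        (θ : ↥(L ⊔ Subgroup.zpowers x) →* MulAut V),
        (∀ v : V, v ^ p = 1) →
        fixSub θ ((Subgroup.zpowers x).subgroupOf (L ⊔ Subgroup.zpowers x)) = ⊥ →
        (∀ W : Subgroup V, (∀ γ : ↥(L ⊔ Subgroup.zpowers x), ∀ w ∈ W, θ γ w ∈ W) →
          W = ⊥ ∨ W = ⊤) →
        ∀ γ ∈ L.subgroupOf (L ⊔ Subgroup.zpowers x), θ γ = 1) :
    ⁅K, R⁆ ≤ fittingOf K := by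
  rcases eq_or_ne R ⊥ with hR | hR
  · rw [hR, Subgroup.commutator_bot_right]; exact bot_le
  obtain ⟨r, hr, hrd⟩ := Nat.exists_prime_and_dvd (fun h => hR (Subgroup.card_eq_one.mp h))
  haveI := Fact.mk hr
  obtain ⟨x', hx'⟩ := exists_prime_orderOf_dvd_card' r hrd
  set x : G := (x' : G) with hx
  have hord : orderOf x = r := by rw [hx, Subgroup.orderOf_coe, hx']
  have hx1 : x ≠ 1 := fun h => hr.ne_one (by rw [← hord, h, orderOf_one])
  have hxcop : (Nat.card K).Coprime (orderOf x) :=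
    hcop.coprime_dvd_right (by rw [hord]; exact hrd)
  have hFx : fittingOf K ⊓ Subgroup.centralizer ({x} : Set G) = ⊥ := by
    rw [← le_bot_iff, ← hF]
    refine le_inf inf_le_left ?_
    exact ((inf_le_inf_right _ (fittingOf_le K)).trans (hprime x x'.2 hx1).le).trans inf_le_right
  have hmain := commutator_zpowers_le_fittingOf hK (x := x) (hord ▸ hr) hxcop
    (fun p q _ _ P Q hP hQ hpq hQK hPK hxP hxQ hQP hfix => by
      rcases eq_or_ne P ⊥ with hP0 | hP0
      · rw [hP0]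
        exact fun a _ => Subgroup.mem_centralizer_iff.mpr fun y hy => by
          rw [SetLike.mem_coe, Subgroup.mem_bot] at hy; simp [hy]
      rcases eq_or_ne Q ⊥ with hQ0 | hQ0
      · rw [hQ0, Subgroup.commutator_bot_left]; exact bot_le
      have hdvd : ∀ (s : ℕ) [Fact s.Prime] (S : Subgroup G), IsPGroup s S → S ≤ K → S ≠ ⊥ →
          s ∣ Nat.card K := fun s _ S hS hSK hS0 => by
        obtain ⟨n, hn, hc⟩ := hS.nontrivial_iff_card.mp ((Subgroup.nontrivial_iff_ne_bot S).mpr hS0)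
        exact (hc ▸ dvd_pow_self s (by omega)).trans (Subgroup.card_dvd_of_le hSK)
      have hxp := hxcop.symm.coprime_dvd_right (hdvd p P hP hPK hP0)
      have hxq := hxcop.symm.coprime_dvd_right (hdvd q Q hQ hQK hQ0)
      refine commutator_le_centralizer_of_irreducible hP hQ hpq hxp hxq hxP hxQ hQP hfix ?_
      exact fun L hLQ hxL hLL => hkey p q L x x'.2 (hord ▸ hr) (hLQ.trans hQK) (hQ.to_le hLQ) hpq
        hxp hxq hxL hLL (hdvd p P hP hPK hP0))
    hFx
  have hnorm : ∀ A : Subgroup G, A ≤ Subgroup.normalizer (K : Set G) := fun A => by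
    rw [Subgroup.normalizer_eq_top_iff.mpr inferInstance]; exact le_top
  have hsup := CoprimeAction.commutator_sup_centralizer (A := Subgroup.zpowers x) (K := K) (hnorm _)
    (by rw [Nat.card_zpowers]; exact hxcop.symm) (Or.inr hK)
  refine Subgroup.commutator_le.mpr fun k hk y hy => ?_
  have hkm : k ∈ ⁅K, Subgroup.zpowers x⁆ ⊔ (K ⊓ Subgroup.centralizer (Subgroup.zpowers x : Set G)) := by
    rw [hsup]; exact hk
  rw [sup_comm] at hkm
  have hset : k ∈ (((K ⊓ Subgroup.centralizer (Subgroup.zpowers x : Set G)) ⊔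
      ⁅K, Subgroup.zpowers x⁆ : Subgroup G) : Set G) := hkm
  rw [Subgroup.coe_mul_of_left_le_normalizer_right _ _ ((inf_le_left : _ ≤ K).trans
    (le_sup_left.trans (CoprimeAction.sup_le_normalizer_commutator (Subgroup.zpowers x) K)))] at hset
  obtain ⟨c, hc, f, hf, rfl⟩ := hset
  have hcR : c ∈ K ⊓ Subgroup.centralizer (R : Set G) := by
    rw [← hprime x x'.2 hx1]
    exact ⟨hc.1, centralizer_zpowers_eq x ▸ hc.2⟩
  have hcy : y * c = c * y := Subgroup.mem_centralizer_iff.mp hcR.2 y hy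
  have hfy : f * y * f⁻¹ * y⁻¹ ∈ fittingOf K := by
    rw [mul_assoc, mul_assoc f y, ← mul_assoc y]
    exact (fittingOf K).mul_mem (hmain hf) (CoprimeAction.conj_mem
      (normalizer_le_normalizer_fittingOf K (hnorm ⊤ trivial)) ((fittingOf K).inv_mem (hmain hf)))
  have he : ⁅c * f, y⁆ = c * (f * y * f⁻¹ * y⁻¹) * c⁻¹ := by
    rw [commutatorElement_def]
    have h1 : y⁻¹ * c⁻¹ = c⁻¹ * y⁻¹ := by rw [← mul_inv_rev, ← mul_inv_rev, hcy]
    calc c * f * y * (c * f)⁻¹ * y⁻¹ = c * f * y * f⁻¹ * (c⁻¹ * y⁻¹) := by group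
      _ = c * f * y * f⁻¹ * (y⁻¹ * c⁻¹) := by rw [h1]
      _ = c * (f * y * f⁻¹ * y⁻¹) * c⁻¹ := by group
  rw [he]
  exact CoprimeAction.conj_mem (le_normalizer_fittingOf K hc.1) hfy

end CfsgLib.BGTypes
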